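import Cfsg.Agent.Lib.Schur.PcPerm

/-!
# A tail certificate for a Sylow 3-subgroup of `HS` (generated by a script)
-/

set_option autoImplicit false
set_option maxRecDepth 100000
set_option maxHeartbeats 0

namespace Cfsg.Agent.Lib.HSSch.P3

open Cfsg.Agent.Lib.Schur.PcMain Cfsg.Agent.Lib.Schur.PcPerm

def rule_0 : List (List ℕ) := [[]]

def rule_1 : List (List ℕ) := [[1], []]

def item_0 : List (List ℕ) × List (List ℕ) := ([[0], [1]], [[0, 0, 1, 1], [0, 0]])

def ov_0 : List ℕ × ℕ × ℕ × List (ℕ × ℤ) := ([1, 1, 1, 0], 0, 2, [(1000, -3)])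

def ov_1 : List ℕ × ℕ × ℕ × List (ℕ × ℤ) := ([1, 0, 0, 0], 0, 1, [(1000, 3)])

def fr_0 : ℕ × List ℕ × List ℕ × List (ℕ × ℤ) := (0, [0, 0, 0], [], [(0, 1), (1000, 6), (1001, 2), (1000000, 3)])

def fr_1 : ℕ × List ℕ × List ℕ × List (ℕ × ℤ) := (0, [1, 1, 1], [], [(0, 2), (1001, -1), (1000001, 3)])

def fr_2 : ℕ × List ℕ × List ℕ × List (ℕ × ℤ) := (0, [1, 0], [0, 1], [(1000, -5)])

def tg_0 : ℕ × ℤ × List (ℕ × ℤ) := (1000, -1, [])

def C : Cert where
  p := 3
  n := 2
  r := 2
  fuel := 17
  rules := [rule_0, rule_1]
  defs := []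
  items := [item_0]
  ovs := [ov_0, ov_1]
  frs := [fr_0, fr_1, fr_2]
  k0 := 1000
  zm := 1
  zcomb := [(1, 2), (4, 1)]
  targets := [tg_0]

def codes : List ℕ := [745172132695510602703480818687931821275033532806239348621575627093914754975605958222218403252010630412055638999122812927575527671863646926526205030090473346638559159815209213487261609784947483769009436395427065743129518203296267810784393375370658044184620508710743599158, 1538295662089571838934713014457503270432743558731736761218257966194829927485421686126599398491868292104968976358793515282639061507178486411082953597052836609191621170879363542204634049342683828505217999050739493293707896118361936821831227844510062946850581186123989003264]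

def conj : List ℕ := [1304904332999551101319515233712193858781627536689951035537058418937997029973165544711167324051413755074208883016407807005326853011349907185820881068485365241709168860611791395953557624554340026807639285472306843722686075813701152734886247522703936082759949277628768229439]

def codesW : List (List ℕ) := [[3, 3, 2, 3, 0, 0, 3, 2, 2, 1, 0, 1, 2, 3, 2, 2], [1, 0, 3, 2, 1, 1, 2, 2, 3, 0, 3, 0, 0, 0, 3, 3, 3]]

def conjW : List (List ℕ) := [[1, 0, 3, 3, 3, 0, 0, 3, 0, 1, 2, 2, 2, 2, 1, 2, 3]]

def base : List ℕ := [1]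

def ord : List ℕ := [0, 5, 3, 8, 2, 6, 1, 7, 4]


end Cfsg.Agent.Lib.HSSch.P3
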