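import Cfsg.Agent.Lib.LeechP.HS
import Cfsg.Agent.Lib.HSSch.P2
import Cfsg.Agent.Lib.HSSch.P3
import Cfsg.Agent.Lib.HSSch.P5
import Cfsg.Agent.Lib.Schur.Local

/-!
# Kernels of stem extensions of `HS` have order dividing 2
-/

set_option autoImplicit false
set_option maxRecDepth 100000
set_option maxHeartbeats 0

namespace Cfsg.Agent.Lib.HSSch

open Cfsg Subgroup Cfsg.Agent.Lib.LeechP.HS Cfsg.Agent.Lib.PermComp.Core
open Cfsg.Agent.Lib.Schur.Stem Cfsg.Agent.Lib.Schur.Local
open Cfsg.Agent.Lib.Schur.PcMain Cfsg.Agent.Lib.Schur.PcPerm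

theorem mem2a : P2.codes = P2.codesW.map wc := by decide +kernel
theorem mem2b : P2.conj = P2.conjW.map wc := by decide +kernel
theorem mem3a : P3.codes = P3.codesW.map wc := by decide +kernel
theorem mem3b : P3.conj = P3.conjW.map wc := by decide +kernel
theorem mem5a : P5.codes = P5.codesW.map wc := by decide +kernel
theorem mem5b : P5.conj = P5.conjW.map wc := by decide +kernel

theorem chk2 : chkP 100 9 511 idc P2.C P2.codes P2.conj P2.base P2.ord = true := by decide +kernel
theorem chk3 : chkP 100 9 511 idc P3.C P3.codes P3.conj P3.base P3.ord = true := by decide +kernel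
theorem chk5 : chkP 100 9 511 idc P5.C P5.codes P5.conj P5.base P5.ord = true := by decide +kernel

theorem p2a : P2.C.chkTable = true := by decide +kernel
theorem p2b : P2.C.chkDefs = true := by decide +kernel
theorem p2c : P2.C.chkOvs = true := by decide +kernel
theorem p2d : P2.C.chkFrs = true := by decide +kernel
theorem p2e : P2.C.chkTargets = true := by decide +kernel

theorem check2 : P2.C.check = true := by
  simp only [Cert.check, Bool.and_eq_true]
  exact ⟨⟨⟨⟨p2a, p2b⟩, p2c⟩, p2d⟩, p2e⟩

theorem check3 : P3.C.check = true := by decide +kernel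
theorem check5 : P5.C.check = true := by decide +kernel

theorem not_sq_dvd {p : ℕ} (hp : p.Prime) (h2 : p ≠ 2) (h3 : p ≠ 3) (h5 : p ≠ 5) : ¬ p ^ 2 ∣ 44352000 := by
  intro h
  have hc : Nat.Coprime (p ^ 2) (2 ^ 9 * 3 ^ 2 * 5 ^ 3) := by
    apply Nat.Coprime.pow_left
    apply Nat.Coprime.mul_right
    · apply Nat.Coprime.mul_right
      · exact Nat.Coprime.pow_right _ ((Nat.coprime_primes hp Nat.prime_two).2 h2)
      · exact Nat.Coprime.pow_right _ ((Nat.coprime_primes hp Nat.prime_three).2 h3)
    · exact Nat.Coprime.pow_right _ ((Nat.coprime_primes hp Nat.prime_five).2 h5)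
  have h4 : p ^ 2 ∣ 77 := by
    have : 44352000 = (2 ^ 9 * 3 ^ 2 * 5 ^ 3) * 77 := by norm_num
    rw [this] at h
    exact hc.dvd_of_dvd_mul_left h
  have h6 := Nat.le_of_dvd (by norm_num) h4
  have h7 : p ≤ 8 := by nlinarith
  interval_cases p
  all_goals first | omega | (norm_num at hp; done) | (norm_num at h4; done)

/-- The main bound on the permutation group. -/
theorem card_ker_dvd_P {Γ : Type*} [Group Γ] [Finite Γ] {σ : Γ →* PP} (hσ : IsStemExtension σ) :
    Nat.card σ.ker ∣ 2 := by
  refine card_ker_dvd_of_sylow hσ 2 two_ne_zero ?_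
  intro p _ Q
  by_cases hp2 : p = 2
  · subst hp2
    exact card_ker_dvd (p := 2) (e := Equiv.refl (Fin 100)) PP P2.C check2 P2.codes P2.conj P2.base P2.ord chk2
      (rep_of_words mem2a (by decide +kernel)) (rep_of_words mem2b (by decide +kernel)) rfl hσ (m := 86625)
      (by rw [card_PP]; decide +kernel) (by norm_num) Q
  by_cases hp3 : p = 3
  · subst hp3
    exact (card_ker_dvd (p := 3) (e := Equiv.refl (Fin 100)) PP P3.C check3 P3.codes P3.conj P3.base P3.ord chk3
      (rep_of_words mem3a (by decide +kernel)) (rep_of_words mem3b (by decide +kernel)) rfl hσ (m := 4928000)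
      (by rw [card_PP]; decide +kernel) (by norm_num) Q).trans (one_dvd _)
  by_cases hp5 : p = 5
  · subst hp5
    exact (card_ker_dvd (p := 5) (e := Equiv.refl (Fin 100)) PP P5.C check5 P5.codes P5.conj P5.base P5.ord chk5
      (rep_of_words mem5a (by decide +kernel)) (rep_of_words mem5b (by decide +kernel)) rfl hσ (m := 354816)
      (by rw [card_PP]; decide +kernel) (by norm_num) Q).trans (one_dvd _)
  · refine (card_ker_sylow_of_not_sq_dvd hσ ?_ Q).trans (one_dvd _)
    rw [card_PP]
    exact not_sq_dvd Fact.out hp2 hp3 hp5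

end Cfsg.Agent.Lib.HSSch
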